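import Cfsg.Agent.Lib.H35.TCM22C.Data
import Cfsg.Agent.Lib.H35.TCIdx
set_option autoImplicit false
set_option maxRecDepth 100000
set_option linter.all false
namespace H35.TCM22C
open H35.TC
/-- letters -/
inductive Lt | a | ai | b | bi
  deriving DecidableEq
/-- inverse letter -/
def inv : Lt → Lt
  | .a => .ai
  | .ai => .a
  | .b => .bi
  | .bi => .b
/-- table functions -/
noncomputable def T : Lt → ℕ → ℕ
  | .a => T_a
  | .ai => T_ai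
  | .b => T_b
  | .bi => T_bi
/-- decoding of letter codes -/
def lt : ℕ → Lt
  | 0 => .a
  | 1 => .ai
  | 2 => .b
  | _ => .bi
/-- Coxeter matrix (0: no relation) -/
def mm : Lt → Lt → ℕ
  | _, _ => 0
/-- extra relators `w ^ n` -/
def extra : List (List Lt × ℕ) := [
  ([.b], 3),
  ([.b, .ai, .b, .ai, .bi, .a, .bi, .a, .a], 1),
  ([.a, .ai], 1),
  ([.ai, .a], 1),
  ([.b, .bi], 1),
  ([.bi, .b], 1)]
/-- relators -/
def rels : List (List Lt) := mkRels [] mm extra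
/-- subgroup words -/
def subs : List (List Lt) := [
  [.a]]
noncomputable def dp_a_0 (j u : ℕ) : Bool :=
  Bool.rec (motive := fun _ => Bool) (lS MG [T_bi, T_ai, T_ai, T_b, T_ai, T_b, T_a, T_bi] M (Nat.sub (T_a u) (Nat.mod (T_a u) M)) (nat_lit 40) (Nat.mod (T_a u) M) u) (lS MG [T_ai] M (Nat.sub (T_a u) (Nat.mod (T_a u) M)) (nat_lit 40) (Nat.mod (T_a u) M) u) (Nat.ble (nat_lit 5) j)
noncomputable def dp_a_1 (j u : ℕ) : Bool :=
  Bool.rec (motive := fun _ => Bool) (lH [] [] M (Nat.sub (T_a u) (Nat.mod (T_a u) M)) (Nat.mod (T_a u) M) u) (dp_a_0 j u) (Nat.ble (nat_lit 4) j)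
noncomputable def disp_a (j u : ℕ) : Bool :=
  Bool.rec (motive := fun _ => Bool) (lDef P (nat_lit 0) (Nat.mod (T_a u) M) u) (Bool.rec (motive := fun _ => Bool) (lDef P (nat_lit 1) u (Nat.mod (T_a u) M)) (Bool.rec (motive := fun _ => Bool) (lF1 T_ai M (Nat.sub (T_a u) (Nat.mod (T_a u) M)) (Nat.mod (T_a u) M) u) (dp_a_1 j u) (Nat.ble (nat_lit 3) j)) (Nat.ble (nat_lit 2) j)) (Nat.ble (nat_lit 1) j)
noncomputable def chk_a (j u : ℕ) : Bool :=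
  Bool.rec (motive := fun _ => Bool) (disp_a j u) (Nat.ble (Nat.succ (MG u)) A) (Nat.ble A (T_a u))
noncomputable def dp_ai_0 (j u : ℕ) : Bool :=
  Bool.rec (motive := fun _ => Bool) (lF [T_bi, T_a, T_bi, T_a, T_a, T_b, T_ai, T_b] M (Nat.sub (T_ai u) (Nat.mod (T_ai u) M)) (Nat.mod (T_ai u) M) u) (lF [T_ai, T_b, T_ai, T_b, T_a, T_bi, T_a, T_bi] M (Nat.sub (T_ai u) (Nat.mod (T_ai u) M)) (Nat.mod (T_ai u) M) u) (Nat.ble (nat_lit 5) j)
noncomputable def dp_ai_1 (j u : ℕ) : Bool :=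
  Bool.rec (motive := fun _ => Bool) (lF [T_b, T_ai, T_b, T_a, T_bi, T_a, T_bi, T_ai] M (Nat.sub (T_ai u) (Nat.mod (T_ai u) M)) (Nat.mod (T_ai u) M) u) (lS MG [T_b, T_a, T_bi, T_a, T_bi, T_ai, T_ai, T_b] M (Nat.sub (T_ai u) (Nat.mod (T_ai u) M)) (nat_lit 40) (Nat.mod (T_ai u) M) u) (Nat.ble (nat_lit 8) j)
noncomputable def dp_ai_2 (j u : ℕ) : Bool :=
  Bool.rec (motive := fun _ => Bool) (lS MG [T_b, T_ai, T_b, T_a, T_bi, T_a, T_bi, T_ai] M (Nat.sub (T_ai u) (Nat.mod (T_ai u) M)) (nat_lit 40) (Nat.mod (T_ai u) M) u) (dp_ai_1 j u) (Nat.ble (nat_lit 7) j)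
noncomputable def disp_ai (j u : ℕ) : Bool :=
  Bool.rec (motive := fun _ => Bool) (lDef P (nat_lit 0) u (Nat.mod (T_ai u) M)) (Bool.rec (motive := fun _ => Bool) (lDef P (nat_lit 1) (Nat.mod (T_ai u) M) u) (Bool.rec (motive := fun _ => Bool) (Bool.rec (motive := fun _ => Bool) (lF1 T_a M (Nat.sub (T_ai u) (Nat.mod (T_ai u) M)) (Nat.mod (T_ai u) M) u) (lS MG [T_a] M (Nat.sub (T_ai u) (Nat.mod (T_ai u) M)) (nat_lit 40) (Nat.mod (T_ai u) M) u) (Nat.ble (nat_lit 3) j)) (Bool.rec (motive := fun _ => Bool) (dp_ai_0 j u) (dp_ai_2 j u) (Nat.ble (nat_lit 6) j)) (Nat.ble (nat_lit 4) j)) (Nat.ble (nat_lit 2) j)) (Nat.ble (nat_lit 1) j)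
noncomputable def chk_ai (j u : ℕ) : Bool :=
  Bool.rec (motive := fun _ => Bool) (disp_ai j u) (Nat.ble (Nat.succ (MG u)) A) (Nat.ble A (T_ai u))
noncomputable def dp_b_0 (j u : ℕ) : Bool :=
  Bool.rec (motive := fun _ => Bool) (lF [T_ai, T_b, T_ai, T_bi, T_a, T_bi, T_a, T_a] M (Nat.sub (T_b u) (Nat.mod (T_b u) M)) (Nat.mod (T_b u) M) u) (lS MG [T_bi] M (Nat.sub (T_b u) (Nat.mod (T_b u) M)) (nat_lit 40) (Nat.mod (T_b u) M) u) (Nat.ble (nat_lit 4) j)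
noncomputable def dp_b_1 (j u : ℕ) : Bool :=
  Bool.rec (motive := fun _ => Bool) (lF [T_ai, T_b, T_a, T_bi, T_a, T_bi, T_ai, T_ai] M (Nat.sub (T_b u) (Nat.mod (T_b u) M)) (Nat.mod (T_b u) M) u) (lS MG [T_ai, T_bi, T_a, T_bi, T_a, T_a, T_b, T_ai] M (Nat.sub (T_b u) (Nat.mod (T_b u) M)) (nat_lit 40) (Nat.mod (T_b u) M) u) (Nat.ble (nat_lit 7) j)
noncomputable def dp_b_2 (j u : ℕ) : Bool :=
  Bool.rec (motive := fun _ => Bool) (lF1 T_bi M (Nat.sub (T_b u) (Nat.mod (T_b u) M)) (Nat.mod (T_b u) M) u) (dp_b_1 j u) (Nat.ble (nat_lit 6) j)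
noncomputable def disp_b (j u : ℕ) : Bool :=
  Bool.rec (motive := fun _ => Bool) (Bool.rec (motive := fun _ => Bool) (lDef P (nat_lit 3) u (Nat.mod (T_b u) M)) (lDef P (nat_lit 2) (Nat.mod (T_b u) M) u) (Nat.ble (nat_lit 1) j)) (Bool.rec (motive := fun _ => Bool) (lF [T_b, T_b] M (Nat.sub (T_b u) (Nat.mod (T_b u) M)) (Nat.mod (T_b u) M) u) (Bool.rec (motive := fun _ => Bool) (dp_b_0 j u) (dp_b_2 j u) (Nat.ble (nat_lit 5) j)) (Nat.ble (nat_lit 3) j)) (Nat.ble (nat_lit 2) j)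
noncomputable def chk_b (j u : ℕ) : Bool :=
  Bool.rec (motive := fun _ => Bool) (disp_b j u) (Nat.ble (Nat.succ (MG u)) A) (Nat.ble A (T_b u))
noncomputable def dp_bi_0 (j u : ℕ) : Bool :=
  Bool.rec (motive := fun _ => Bool) (lS MG [T_b] M (Nat.sub (T_bi u) (Nat.mod (T_bi u) M)) (nat_lit 40) (Nat.mod (T_bi u) M) u) (lF [T_bi, T_bi] M (Nat.sub (T_bi u) (Nat.mod (T_bi u) M)) (Nat.mod (T_bi u) M) u) (Nat.ble (nat_lit 5) j)
noncomputable def dp_bi_1 (j u : ℕ) : Bool :=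
  Bool.rec (motive := fun _ => Bool) (lF [T_ai, T_ai, T_b, T_ai, T_b, T_a, T_bi, T_a] M (Nat.sub (T_bi u) (Nat.mod (T_bi u) M)) (Nat.mod (T_bi u) M) u) (dp_bi_0 j u) (Nat.ble (nat_lit 4) j)
noncomputable def disp_bi (j u : ℕ) : Bool :=
  Bool.rec (motive := fun _ => Bool) (Bool.rec (motive := fun _ => Bool) (lF1 T_b M (Nat.sub (T_bi u) (Nat.mod (T_bi u) M)) (Nat.mod (T_bi u) M) u) (lDef P (nat_lit 3) (Nat.mod (T_bi u) M) u) (Nat.ble (nat_lit 1) j)) (Bool.rec (motive := fun _ => Bool) (lDef P (nat_lit 2) u (Nat.mod (T_bi u) M)) (dp_bi_1 j u) (Nat.ble (nat_lit 3) j)) (Nat.ble (nat_lit 2) j)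
noncomputable def chk_bi (j u : ℕ) : Bool :=
  Bool.rec (motive := fun _ => Bool) (disp_bi j u) (Nat.ble (Nat.succ (MG u)) A) (Nat.ble A (T_bi u))
noncomputable def dM_0 (j z1 z2 u : ℕ) : Bool :=
  Bool.rec (motive := fun _ => Bool) (Bool.rec (motive := fun _ => Bool) (mCo MG T_b M (Nat.sub (MG u) (Nat.mod (MG u) M)) (nat_lit 40) z1 z2 u (Nat.mod (MG u) M)) (mCo MG T_bi M (Nat.sub (MG u) (Nat.mod (MG u) M)) (nat_lit 40) z1 z2 u (Nat.mod (MG u) M)) (Nat.ble (nat_lit 1) j)) (Bool.rec (motive := fun _ => Bool) (Bool.rec (motive := fun _ => Bool) (mCo MG T_a M (Nat.sub (MG u) (Nat.mod (MG u) M)) (nat_lit 40) z1 z2 u (Nat.mod (MG u) M)) (mCo MG T_ai M (Nat.sub (MG u) (Nat.mod (MG u) M)) (nat_lit 40) z1 z2 u (Nat.mod (MG u) M)) (Nat.ble (nat_lit 3) j)) (Bool.rec (motive := fun _ => Bool) (Bool.rec (motive := fun _ => Bool) (mRel MG [T_a, T_b] [T_ai, T_b, T_ai, T_b, T_a,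 T_bi, T_a] M (Nat.sub (MG u) (Nat.mod (MG u) M)) (nat_lit 40) z1 u (Nat.mod (MG u) M)) (Bool.rec (motive := fun _ => Bool) (mRel MG [T_ai, T_b, T_a, T_bi, T_a, T_bi] [T_bi, T_a, T_a] M (Nat.sub (MG u) (Nat.mod (MG u) M)) (nat_lit 40) z1 u (Nat.mod (MG u) M)) (mRel MG [T_ai, T_b, T_ai, T_b, T_a, T_bi, T_a, T_bi, T_ai] [] M (Nat.sub (MG u) (Nat.mod (MG u) M)) (nat_lit 40) z1 u (Nat.mod (MG u) M)) (Nat.ble (nat_lit 6) j)) (Nat.ble (nat_lit 5) j)) (Bool.rec (motive := fun _ => Bool) (mRel MG [T_ai, T_b, T_ai, T_b, T_a, T_bi] [T_a, T_b, T_ai] M (Nat.sub (MG u) (Nat.mod (MG u) M)) (nat_lit 40) z1 u (Nat.mod (MG u) M)) (Bool.rec (motive := fun _ => Bool) (mRel MG [T_ai, T_b, T_a, T_bi] [T_bi, T_a, T_a, T_b, T_ai] M (Nat.sub (MG u) (Nat.mod (MG u) M)) (nat_lit 40) z1 u (Nat.mod (MG u) M)) (mRel MG [T_a, T_bi] [T_bi, T_a, T_bi, T_a, T_a, T_b, T_ai] M (Nat.sub (MG u) (Nat.mod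 (MG u) M)) (nat_lit 40) z1 u (Nat.mod (MG u) M)) (Nat.ble (nat_lit 9) j)) (Nat.ble (nat_lit 8) j)) (Nat.ble (nat_lit 7) j)) (Nat.ble (nat_lit 4) j)) (Nat.ble (nat_lit 2) j)
noncomputable def chkM (u : ℕ) : Bool :=
  Bool.rec (motive := fun _ => Bool) (band (Nat.ble (Nat.succ (Nat.mod (MG u) M)) u) (dM_0 (Nat.land (MR u) (nat_lit 15)) (Nat.land (Nat.shiftRight (MR u) (nat_lit 4)) (nat_lit 63)) (Nat.shiftRight (MR u) (nat_lit 10)) u)) true (Nat.ble A (MG u))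
noncomputable def chkN (u : ℕ) : Bool :=
  band (chk_a (Nat.land (Nat.shiftRight (RS u) (nat_lit 0)) (nat_lit 15)) u) (band (chk_ai (Nat.land (Nat.shiftRight (RS u) (nat_lit 4)) (nat_lit 15)) u) (band (chk_b (Nat.land (Nat.shiftRight (RS u) (nat_lit 8)) (nat_lit 15)) u) (band (chk_bi (Nat.land (Nat.shiftRight (RS u) (nat_lit 12)) (nat_lit 15)) u) (chkM u))))
noncomputable def chkP (u : ℕ) : Bool := Bool.rec (motive := fun _ => Bool) (chkN u) true (Nat.ble M u)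
noncomputable def liveP (u : ℕ) : Bool := Bool.rec (motive := fun _ => Bool) (Nat.ble A (MG u)) false (Nat.ble M u)
end H35.TCM22C
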