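import Mathlib.Init
set_option autoImplicit false
set_option maxRecDepth 100000
set_option linter.all false
namespace H35.TCM22C
noncomputable def T_a_0 (i : Nat) : Nat := Nat.land (Nat.shiftRight (nat_lit 0x923ff8153e7ffffffffffe043ff80efffffc067ff535ffc05009053ffca2827049fffff80604207c8b01c1180100b8160260080680100e0140182b) (Nat.mul (nat_lit 11) (Nat.land i (nat_lit 2047)))) (nat_lit 2047)
noncomputable abbrev T_a : Nat → Nat := T_a_0
noncomputable def T_ai_0 (i : Nat) : Nat := Nat.land (Nat.shiftRight (nat_lit 0x1ffc0bfff029fffff813ffef1807fff01dfffff80c6d0755171170120201413a00ffffff8220ee0800281d0c20640c7ff0060400100a00201802056) (Nat.mul (nat_lit 11) (Nat.land i (nat_lit 2047)))) (nat_lit 2047)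
noncomputable abbrev T_ai : Nat → Nat := T_ai_0
noncomputable def T_b_0 (i : Nat) : Nat := Nat.land (Nat.shiftRight (nat_lit 0x754517ff33604c28fff020f2bffa48ffe037ff8a40141199f02a13fffc0384004a01bff87200a0e83680406e068018340280440700b01000016801) (Nat.mul (nat_lit 11) (Nat.land i (nat_lit 2047)))) (nat_lit 2047)
noncomputable abbrev T_b : Nat → Nat := T_b_0
noncomputable def T_bi_0 (i : Nat) : Nat := Nat.land (Nat.shiftRight (nat_lit 0x63fffff35a1ec09fffffef706afffffffffff8910e00293d17f11dffc3500704dffc030230c80140f06100806c2f00302a0480780c01215c00002) (Nat.mul (nat_lit 11) (Nat.land i (nat_lit 2047)))) (nat_lit 2047)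
noncomputable abbrev T_bi : Nat → Nat := T_bi_0
noncomputable def P_0 (i : Nat) : Nat := Nat.land (Nat.shiftRight (nat_lit 0x60ae151a04ce653081c05e0e17034d82c051a89429148200e6723818cc46129948a0432110466321808440110800c0400) (Nat.mul (nat_lit 9) (Nat.land i (nat_lit 2047)))) (nat_lit 511)
noncomputable abbrev P : Nat → Nat := P_0
noncomputable def MG_0 (i : Nat) : Nat := Nat.land (Nat.shiftRight (nat_lit 0x106d5f275752fd61544c6cdffd752f2522c7d3434cffedb3fffffffe367fffffffe368707fffffffffffffffffffff8b2ffffffffffffffffffffff) (Nat.mul (nat_lit 11) (Nat.land i (nat_lit 2047)))) (nat_lit 2047)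
noncomputable abbrev MG : Nat → Nat := MG_0
noncomputable def RS_0 (i : Nat) : Nat := Nat.land (Nat.shiftRight (nat_lit 0x2502030000015502000022000000000044310000070100000000000102000035228004713161020000000012222011000000200016110050221013040010224211110010220011001111110011111100001022101123) (Nat.mul (nat_lit 16) (Nat.land i (nat_lit 2047)))) (nat_lit 65535)
noncomputable abbrev RS : Nat → Nat := RS_0
noncomputable def MR_0 (i : Nat) : Nat := Nat.land (Nat.shiftRight (nat_lit 0x1898007c80e88346041f130cea2db800001d483a9373a5780007300f50001b704000000000006208000000000006204c400000000000000000000000000000000014000000000000000000000000000000) (Nat.mul (nat_lit 15) (Nat.land i (nat_lit 2047)))) (nat_lit 32767)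
noncomputable abbrev MR : Nat → Nat := MR_0
/-- number of nodes -/
abbrev M : Nat := 43
/-- absent threshold -/
abbrev A : Nat := 2047
end H35.TCM22C
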