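import Cfsg.Agent.Lib.H35.TCM22C.Chk
set_option autoImplicit false
set_option maxRecDepth 100000
set_option linter.all false
namespace H35.TCM22C
open H35.TC
section
variable {G : Type} [Group G] {g : Lt → G} {H : Subgroup G}
/-- hypotheses -/
abbrev Hy (g : Lt → G) (H : Subgroup G) : Prop := (∀ x, g (inv x) = (g x)⁻¹) ∧ (∀ r ∈ rels, (r.map g).prod = 1) ∧ ∀ r ∈ subs, (r.map g).prod ∈ H
theorem hM0 : 0 < M := by decide
theorem hat {r W : List Lt} {x : Lt} (hr : (r.map g).prod = 1) (k : ℕ) (h : r.drop k ++ r.take k = W ++ [x]) (z : G ⧸ H) : fa g x (act (fa g) W z) = z := hole_at hr k h z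
theorem pat (hy : Hy g H) {r W1 W2 : List Lt} (hr : (r.map g).prod = 1) (k : ℕ) (h : r.drop k ++ r.take k = W1 ++ (W2.map inv).reverse) (z : G ⧸ H) : act (fa g) W1 z = act (fa g) W2 z := pair_at hy.1 hr k h z
theorem ivt (hy : Hy g H) (x x' : Lt) (hx : inv x = x') (z : G ⧸ H) : fa g x (fa g x' z) = z := inv_rel hy.1 x x' hx z
theorem rf_0 (hy : Hy g H) : (([.b, .b, .b] : List Lt).map g).prod = 1 := hy.2.1 _ (by decide +kernel)
theorem rb_0 (hy : Hy g H) : (([.bi, .bi, .bi] : List Lt).map g).prod = 1 := inv_at hy.1 (rf_0 hy)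
theorem rf_1 (hy : Hy g H) : (([.b, .ai, .b, .ai, .bi, .a, .bi, .a, .a] : List Lt).map g).prod = 1 := hy.2.1 _ (by decide +kernel)
theorem rb_1 (hy : Hy g H) : (([.ai, .ai, .b, .ai, .b, .a, .bi, .a, .bi] : List Lt).map g).prod = 1 := inv_at hy.1 (rf_1 hy)
theorem rf_2 (hy : Hy g H) : (([.a, .ai] : List Lt).map g).prod = 1 := hy.2.1 _ (by decide +kernel)
theorem rb_2 (hy : Hy g H) : (([.a, .ai] : List Lt).map g).prod = 1 := inv_at hy.1 (rf_2 hy)
theorem rf_3 (hy : Hy g H) : (([.ai, .a] : List Lt).map g).prod = 1 := hy.2.1 _ (by decide +kernel)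
theorem rb_3 (hy : Hy g H) : (([.ai, .a] : List Lt).map g).prod = 1 := inv_at hy.1 (rf_3 hy)
theorem rf_4 (hy : Hy g H) : (([.b, .bi] : List Lt).map g).prod = 1 := hy.2.1 _ (by decide +kernel)
theorem rb_4 (hy : Hy g H) : (([.b, .bi] : List Lt).map g).prod = 1 := inv_at hy.1 (rf_4 hy)
theorem rf_5 (hy : Hy g H) : (([.bi, .b] : List Lt).map g).prod = 1 := hy.2.1 _ (by decide +kernel)
theorem rb_5 (hy : Hy g H) : (([.bi, .b] : List Lt).map g).prod = 1 := inv_at hy.1 (rf_5 hy)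
/-- the points of the nodes -/
noncomputable def cP (g : Lt → G) (H : Subgroup G) : ℕ → G ⧸ H := cc (fa g) lt P ((1 : G) : G ⧸ H)
/-- soundness of an entry -/
abbrev Gd (g : Lt → G) (H : Subgroup G) (x : Lt) (u : ℕ) : Prop := Good (fa g) T MG M (cP g H) x u
/-- soundness of a merge -/
abbrev GdM (g : Lt → G) (H : Subgroup G) (u : ℕ) : Prop := GoodM (fa g) T MG M (cP g H) u
theorem dp_a_0_s (hy : Hy g H)
    (j u : ℕ) (hu : u < M) (h : dp_a_0 j u = true) : Gd g H Lt.a u := by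
  unfold dp_a_0 at h
  rcases brec_true h with h | h
  · exact lS_good (T := T) (x := Lt.a) hM0 hu [Lt.bi, Lt.ai, Lt.ai, Lt.b, Lt.ai, Lt.b, Lt.a, Lt.bi] (hat (rb_1 hy) 8 rfl) h
  · exact lS_good (T := T) (x := Lt.a) hM0 hu [Lt.ai] (hat (rf_2 hy) 1 rfl) h
theorem dp_a_1_s (hy : Hy g H)
    (j u : ℕ) (hu : u < M) (h : dp_a_1 j u = true) : Gd g H Lt.a u := by
  unfold dp_a_1 at h
  rcases brec_true h with h | h
  · exact lH_good (T := T) (x := Lt.a) hM0 [] [] (by rw [show cP g H 0 = _ from cc_zero]; exact sub_rel hy.1 (hy.2.2 _ (by decide))) h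
  · exact dp_a_0_s hy j u hu h
theorem snd_a (hy : Hy g H)
    (j u : ℕ) (hu : u < M) (h : disp_a j u = true) : Gd g H Lt.a u := by
  unfold disp_a at h
  rcases brec_true h with h | h
  · exact lDef_good (T := T) (x := Lt.a) (by decide) rfl h
  · rcases brec_true h with h | h
    · exact lPar_good (T := T) (x := Lt.a) (x' := Lt.ai) (by decide) rfl (ivt hy _ _ rfl) h
    · rcases brec_true h with h | h
      · exact lF1_good (T := T) (x := Lt.a) hM0 .ai (hat (rf_2 hy) 1 rfl) h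
      · exact dp_a_1_s hy j u hu h
theorem snc_a (hy : Hy g H)
    (j u : ℕ) (hu : u < M) (h : chk_a j u = true) : (T Lt.a u < A ∧ Gd g H Lt.a u) ∨ (A ≤ T Lt.a u ∧ MG u < A) := by
  unfold chk_a at h
  cases hb : Nat.ble A (T_a u) with
  | true => rw [hb] at h; exact Or.inr ⟨le_of_ble hb, le_of_ble h⟩
  | false => rw [hb] at h; exact Or.inl ⟨lt_of_ble_false hb, snd_a hy j u hu h⟩
theorem dp_ai_0_s (hy : Hy g H)
    (j u : ℕ) (hu : u < M) (h : dp_ai_0 j u = true) : Gd g H Lt.ai u := by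
  unfold dp_ai_0 at h
  rcases brec_true h with h | h
  · exact lF_good (T := T) (x := Lt.ai) hM0 [Lt.bi, Lt.a, Lt.bi, Lt.a, Lt.a, Lt.b, Lt.ai, Lt.b] (hat (rf_1 hy) 4 rfl) h
  · exact lF_good (T := T) (x := Lt.ai) hM0 [Lt.ai, Lt.b, Lt.ai, Lt.b, Lt.a, Lt.bi, Lt.a, Lt.bi] (hat (rb_1 hy) 1 rfl) h
theorem dp_ai_1_s (hy : Hy g H)
    (j u : ℕ) (hu : u < M) (h : dp_ai_1 j u = true) : Gd g H Lt.ai u := by
  unfold dp_ai_1 at h
  rcases brec_true h with h | h
  · exact lF_good (T := T) (x := Lt.ai) hM0 [Lt.b, Lt.ai, Lt.b, Lt.a, Lt.bi, Lt.a, Lt.bi, Lt.ai] (hat (rb_1 hy) 2 rfl) h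
  · exact lS_good (T := T) (x := Lt.ai) hM0 hu [Lt.b, Lt.a, Lt.bi, Lt.a, Lt.bi, Lt.ai, Lt.ai, Lt.b] (hat (rb_1 hy) 4 rfl) h
theorem dp_ai_2_s (hy : Hy g H)
    (j u : ℕ) (hu : u < M) (h : dp_ai_2 j u = true) : Gd g H Lt.ai u := by
  unfold dp_ai_2 at h
  rcases brec_true h with h | h
  · exact lS_good (T := T) (x := Lt.ai) hM0 hu [Lt.b, Lt.ai, Lt.b, Lt.a, Lt.bi, Lt.a, Lt.bi, Lt.ai] (hat (rb_1 hy) 2 rfl) h
  · exact dp_ai_1_s hy j u hu h
theorem snd_ai (hy : Hy g H)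
    (j u : ℕ) (hu : u < M) (h : disp_ai j u = true) : Gd g H Lt.ai u := by
  unfold disp_ai at h
  rcases brec_true h with h | h
  · exact lPar_good (T := T) (x := Lt.ai) (x' := Lt.a) (by decide) rfl (ivt hy _ _ rfl) h
  · rcases brec_true h with h | h
    · exact lDef_good (T := T) (x := Lt.ai) (by decide) rfl h
    · rcases brec_true h with h | h
      · rcases brec_true h with h | h
        · exact lF1_good (T := T) (x := Lt.ai) hM0 .a (hat (rf_2 hy) 0 rfl) h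
        · exact lS_good (T := T) (x := Lt.ai) hM0 hu [Lt.a] (hat (rf_2 hy) 0 rfl) h
      · rcases brec_true h with h | h
        · exact dp_ai_0_s hy j u hu h
        · exact dp_ai_2_s hy j u hu h
theorem snc_ai (hy : Hy g H)
    (j u : ℕ) (hu : u < M) (h : chk_ai j u = true) : (T Lt.ai u < A ∧ Gd g H Lt.ai u) ∨ (A ≤ T Lt.ai u ∧ MG u < A) := by
  unfold chk_ai at h
  cases hb : Nat.ble A (T_ai u) with
  | true => rw [hb] at h; exact Or.inr ⟨le_of_ble hb, le_of_ble h⟩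
  | false => rw [hb] at h; exact Or.inl ⟨lt_of_ble_false hb, snd_ai hy j u hu h⟩
theorem dp_b_0_s (hy : Hy g H)
    (j u : ℕ) (hu : u < M) (h : dp_b_0 j u = true) : Gd g H Lt.b u := by
  unfold dp_b_0 at h
  rcases brec_true h with h | h
  · exact lF_good (T := T) (x := Lt.b) hM0 [Lt.ai, Lt.b, Lt.ai, Lt.bi, Lt.a, Lt.bi, Lt.a, Lt.a] (hat (rf_1 hy) 1 rfl) h
  · exact lS_good (T := T) (x := Lt.b) hM0 hu [Lt.bi] (hat (rf_4 hy) 1 rfl) h
theorem dp_b_1_s (hy : Hy g H)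
    (j u : ℕ) (hu : u < M) (h : dp_b_1 j u = true) : Gd g H Lt.b u := by
  unfold dp_b_1 at h
  rcases brec_true h with h | h
  · exact lF_good (T := T) (x := Lt.b) hM0 [Lt.ai, Lt.b, Lt.a, Lt.bi, Lt.a, Lt.bi, Lt.ai, Lt.ai] (hat (rb_1 hy) 3 rfl) h
  · exact lS_good (T := T) (x := Lt.b) hM0 hu [Lt.ai, Lt.bi, Lt.a, Lt.bi, Lt.a, Lt.a, Lt.b, Lt.ai] (hat (rf_1 hy) 3 rfl) h
theorem dp_b_2_s (hy : Hy g H)
    (j u : ℕ) (hu : u < M) (h : dp_b_2 j u = true) : Gd g H Lt.b u := by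
  unfold dp_b_2 at h
  rcases brec_true h with h | h
  · exact lF1_good (T := T) (x := Lt.b) hM0 .bi (hat (rf_4 hy) 1 rfl) h
  · exact dp_b_1_s hy j u hu h
theorem snd_b (hy : Hy g H)
    (j u : ℕ) (hu : u < M) (h : disp_b j u = true) : Gd g H Lt.b u := by
  unfold disp_b at h
  rcases brec_true h with h | h
  · rcases brec_true h with h | h
    · exact lPar_good (T := T) (x := Lt.b) (x' := Lt.bi) (by decide) rfl (ivt hy _ _ rfl) h
    · exact lDef_good (T := T) (x := Lt.b) (by decide) rfl h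
  · rcases brec_true h with h | h
    · exact lF_good (T := T) (x := Lt.b) hM0 [Lt.b, Lt.b] (hat (rf_0 hy) 0 rfl) h
    · rcases brec_true h with h | h
      · exact dp_b_0_s hy j u hu h
      · exact dp_b_2_s hy j u hu h
theorem snc_b (hy : Hy g H)
    (j u : ℕ) (hu : u < M) (h : chk_b j u = true) : (T Lt.b u < A ∧ Gd g H Lt.b u) ∨ (A ≤ T Lt.b u ∧ MG u < A) := by
  unfold chk_b at h
  cases hb : Nat.ble A (T_b u) with
  | true => rw [hb] at h; exact Or.inr ⟨le_of_ble hb, le_of_ble h⟩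
  | false => rw [hb] at h; exact Or.inl ⟨lt_of_ble_false hb, snd_b hy j u hu h⟩
theorem dp_bi_0_s (hy : Hy g H)
    (j u : ℕ) (hu : u < M) (h : dp_bi_0 j u = true) : Gd g H Lt.bi u := by
  unfold dp_bi_0 at h
  rcases brec_true h with h | h
  · exact lS_good (T := T) (x := Lt.bi) hM0 hu [Lt.b] (hat (rf_4 hy) 0 rfl) h
  · exact lF_good (T := T) (x := Lt.bi) hM0 [Lt.bi, Lt.bi] (hat (rb_0 hy) 0 rfl) h
theorem dp_bi_1_s (hy : Hy g H)
    (j u : ℕ) (hu : u < M) (h : dp_bi_1 j u = true) : Gd g H Lt.bi u := by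
  unfold dp_bi_1 at h
  rcases brec_true h with h | h
  · exact lF_good (T := T) (x := Lt.bi) hM0 [Lt.ai, Lt.ai, Lt.b, Lt.ai, Lt.b, Lt.a, Lt.bi, Lt.a] (hat (rb_1 hy) 0 rfl) h
  · exact dp_bi_0_s hy j u hu h
theorem snd_bi (hy : Hy g H)
    (j u : ℕ) (hu : u < M) (h : disp_bi j u = true) : Gd g H Lt.bi u := by
  unfold disp_bi at h
  rcases brec_true h with h | h
  · rcases brec_true h with h | h
    · exact lF1_good (T := T) (x := Lt.bi) hM0 .b (hat (rf_4 hy) 0 rfl) h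
    · exact lDef_good (T := T) (x := Lt.bi) (by decide) rfl h
  · rcases brec_true h with h | h
    · exact lPar_good (T := T) (x := Lt.bi) (x' := Lt.b) (by decide) rfl (ivt hy _ _ rfl) h
    · exact dp_bi_1_s hy j u hu h
theorem snc_bi (hy : Hy g H)
    (j u : ℕ) (hu : u < M) (h : chk_bi j u = true) : (T Lt.bi u < A ∧ Gd g H Lt.bi u) ∨ (A ≤ T Lt.bi u ∧ MG u < A) := by
  unfold chk_bi at h
  cases hb : Nat.ble A (T_bi u) with
  | true => rw [hb] at h; exact Or.inr ⟨le_of_ble hb, le_of_ble h⟩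
  | false => rw [hb] at h; exact Or.inl ⟨lt_of_ble_false hb, snd_bi hy j u hu h⟩
theorem dM_0_s (hy : Hy g H) (j z1 z2 u : ℕ) (h : dM_0 j z1 z2 u = true) : GdM g H u := by
  unfold dM_0 at h
  rcases brec_true h with h | h
  · rcases brec_true h with h | h
    · exact mCo_good (T := T) (y := .b) hM0 h
    · exact mCo_good (T := T) (y := .bi) hM0 h
  · rcases brec_true h with h | h
    · rcases brec_true h with h | h
      · exact mCo_good (T := T) (y := .a) hM0 h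
      · exact mCo_good (T := T) (y := .ai) hM0 h
    · rcases brec_true h with h | h
      · rcases brec_true h with h | h
        · exact mRel_good (T := T) hM0 [Lt.a, Lt.b] [Lt.ai, Lt.b, Lt.ai, Lt.b, Lt.a, Lt.bi, Lt.a] (pat hy (rf_1 hy) 8 rfl) h
        · rcases brec_true h with h | h
          · exact mRel_good (T := T) hM0 [Lt.ai, Lt.b, Lt.a, Lt.bi, Lt.a, Lt.bi] [Lt.bi, Lt.a, Lt.a] (pat hy (rb_1 hy) 3 rfl) h
          · exact mRel_good (T := T) hM0 [Lt.ai, Lt.b, Lt.ai, Lt.b, Lt.a, Lt.bi, Lt.a, Lt.bi, Lt.ai] [] (pat hy (rb_1 hy) 1 rfl) h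
      · rcases brec_true h with h | h
        · exact mRel_good (T := T) hM0 [Lt.ai, Lt.b, Lt.ai, Lt.b, Lt.a, Lt.bi] [Lt.a, Lt.b, Lt.ai] (pat hy (rb_1 hy) 1 rfl) h
        · rcases brec_true h with h | h
          · exact mRel_good (T := T) hM0 [Lt.ai, Lt.b, Lt.a, Lt.bi] [Lt.bi, Lt.a, Lt.a, Lt.b, Lt.ai] (pat hy (rb_1 hy) 3 rfl) h
          · exact mRel_good (T := T) hM0 [Lt.a, Lt.bi] [Lt.bi, Lt.a, Lt.bi, Lt.a, Lt.a, Lt.b, Lt.ai] (pat hy (rb_1 hy) 5 rfl) h
theorem sndM (hy : Hy g H) (u : ℕ) (h : chkM u = true) :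
    MG u < A → MG u % M < u ∧ GdM g H u := by
  intro hA
  unfold chkM at h
  cases hb : Nat.ble A (MG u) with
  | true => exact absurd (le_of_ble hb) (by omega)
  | false =>
    rw [hb] at h
    obtain ⟨h1, h2⟩ := band_eq_true.1 h
    exact ⟨le_of_ble h1, dM_0_s hy _ _ _ _ h2⟩
theorem sndN (hy : Hy g H)
    (u : ℕ) (hu : u < M) (h : chkP u = true) : (∀ x, (T x u < A ∧ Gd g H x u) ∨ (A ≤ T x u ∧ MG u < A)) ∧ (MG u < A → MG u % M < u ∧ GdM g H u) := by
  unfold chkP at h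
  cases hb : Nat.ble M u with
  | true => exact absurd (le_of_ble hb) (by omega)
  | false =>
    rw [hb] at h
    change chkN u = true at h
    unfold chkN at h
    obtain ⟨h0, h⟩ := band_eq_true.1 h
    obtain ⟨h1, h⟩ := band_eq_true.1 h
    obtain ⟨h2, h⟩ := band_eq_true.1 h
    obtain ⟨h3, h⟩ := band_eq_true.1 h
    refine ⟨?_, sndM hy u h⟩
    intro x
    cases x
    · exact snc_a hy _ u hu h0
    · exact snc_ai hy _ u hu h1
    · exact snc_b hy _ u hu h2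
    · exact snc_bi hy _ u hu h3
theorem final (hinv : ∀ x, g (inv x) = (g x)⁻¹) (hr : ∀ r ∈ rels, (r.map g).prod = 1) (hH : ∀ r ∈ subs, (r.map g).prod ∈ H)
    (hall : ∀ u, u < M → chkP u = true) (hc : cntB liveP 6 0 = 24) :
    H.relIndex (Subgroup.closure (Set.range g)) ≤ 24 ∧ H.relIndex (Subgroup.closure (Set.range g)) ≠ 0 := by
  have hn := fun u hu => sndN ⟨hinv, hr, hH⟩ u hu (hall u hu)
  have h1 : ∀ x u, u < M → T x u < A → Good (fa g) T MG M (cP g H) x u := by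
    intro x u hu hx
    rcases (hn u hu).1 x with h | h
    · exact h.2
    · exact absurd h.1 (by omega)
  have h2 : ∀ u, u < M → MG u < A → GoodM (fa g) T MG M (cP g H) u := fun u hu h => ((hn u hu).2 h).2
  refine relIndex_le (M := M) (A := A) (T := T) (MG := MG) (c := cP g H) (by decide) cc_zero (sound_of_good h1 h2) ?_ ?_ ?_
  · intro u hu h
    exact ((hn u hu).2 h).1
  · intro x u hu h
    rcases (hn u hu).1 x with h' | h'
    · exact h'.1
    · exact absurd h'.2 (by omega)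
  · rw [← hc, ← cntB_spec]
    apply Finset.card_le_card
    intro u
    simp only [Finset.mem_filter, Finset.mem_Ico]
    rintro ⟨⟨_, h3⟩, h4⟩
    refine ⟨⟨Nat.zero_le _, lt_of_lt_of_le h3 (by decide)⟩, ?_⟩
    unfold liveP
    cases hb : Nat.ble M u with
    | true => exact absurd (le_of_ble hb) (by omega)
    | false => exact h4
end
end H35.TCM22C
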